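import Cfsg.Agent.Lib.H16.U62.Tab

/-!
The check that the tables describe the action of the generators on the isotropic vectors.
-/

set_option autoImplicit false
set_option maxRecDepth 1000000

namespace Cfsg.Agent.H16.U62

open Cfsg.Agent.H03 Cfsg.Agent.H16.CE.S1687
open Cfsg.Agent.H16.Enum (walk)

/-- The vectors of the generators `a, c, d, e, f, g, h, i, z`. -/
def vecN : ℕ → V
  | 1 => mkV .i .w .o .w .w .o
  | 2 => mkV .i .i .w .i .v .i
  | 3 => mkV .i .i .v .i .w .w
  | 4 => mkV .i .o .w .i .v .o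
  | 5 => mkV .o .i .i .i .o .v
  | 6 => mkV .i .o .v .o .w .w
  | 7 => mkV .o .i .o .v .w .i
  | 8 => mkV .o .o .i .o .o .v
  | _ => mkV .o .o .o .o .o .o

def okS (u : V) (s : ℕ) : Bool :=
  Nat.beq (mu (code (tvr (vecN s) u))) (walk tt (mu (code u)) (sL s))

def okL (u : V) : Bool :=
  Nat.beq (lam (mu (code u))) (code u) || Nat.beq (lam (mu (code u))) (code (scv .w u)) ||
    Nat.beq (lam (mu (code u))) (code (scv .v u))

def okR (u : V) : Bool :=
  if ent (code u) / 9 = 0 then
    Nat.beq (code u) (code (scv .i (vecN (ent (code u) % 9)))) ||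
      Nat.beq (code u) (code (scv .w (vecN (ent (code u) % 9)))) ||
      Nat.beq (code u) (code (scv .v (vecN (ent (code u) % 9))))
  else
    Nat.blt (ent (code (tvr (vecN (ent (code u) % 9)) u)) / 9) (ent (code u) / 9)

def okAt (u : V) : Bool :=
  bif isO (hfr u u) && !(Nat.beq (code u) 0) then
    Nat.blt (mu (code u)) 3510 && okL u && okR u && okS u 0 && okS u 1 && okS u 2 && okS u 3 && okS u 4 &&
      okS u 5 && okS u 6 && okS u 7 && okS u 8
  else true

theorem ok_all : all4 (fun a0 => all4 fun a1 => all4 fun a2 => all4 fun a3 => all4 fun a4 => all4 fun a5 =>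
    okAt (mkV a0 a1 a2 a3 a4 a5)) = true := by
  decide +kernel

end Cfsg.Agent.H16.U62
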