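import Cfsg.Agent.Lib.Lead.PSUSimple
import Cfsg.Agent.Lib.H03.F4

/-!
Unitary transvections over the field with four elements, in a form the kernel can compute with.
-/

set_option autoImplicit false
set_option linter.style.haveILetI false
set_option linter.unusedSimpArgs false

namespace Cfsg.Agent.H16.U62

open Cfsg.Agent.H03 Cfsg.Agent.Lead Cfsg.Agent.Lead.PSU

abbrev V := Fin 6 → GF4
abbrev SU6 := Cfsg.SU 6 GF4 2
abbrev PSU6 := Cfsg.PSU 6 GF4 2

theorem hF : Fintype.card GF4 = 2 ^ 2 := by decide

theorem hn : 0 < 6 := by norm_num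

local notation "herm" => Cfsg.hermForm 6 GF4 2

/-! ### Kernel-friendly operations -/

def fr : GF4 → GF4
  | .o => .o
  | .i => .i
  | .w => .v
  | .v => .w

theorem fr_eq : ∀ x : GF4, x ^ 2 = fr x := by decide

/-- The form. -/
def hfr (u v : V) : GF4 :=
  GF4.add (GF4.add (GF4.add (GF4.add (GF4.add (GF4.mul (u 0) (fr (v 0))) (GF4.mul (u 1) (fr (v 1))))
    (GF4.mul (u 2) (fr (v 2)))) (GF4.mul (u 3) (fr (v 3)))) (GF4.mul (u 4) (fr (v 4)))) (GF4.mul (u 5) (fr (v 5)))

theorem herm_eq (u v : V) : herm u v = hfr u v := by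
  unfold Cfsg.hermForm
  rw [Fin.sum_univ_six]
  simp only [fr_eq]
  rfl

/-- The transvection. -/
def tvr (v u : V) : V := fun j => GF4.add (u j) (GF4.mul (hfr u v) (v j))

/-- Scalar multiple. -/
def scv (c : GF4) (u : V) : V := fun j => GF4.mul c (u j)

def mkV (a0 a1 a2 a3 a4 a5 : GF4) : V := fun i =>
  match i.val with
  | 0 => a0
  | 1 => a1
  | 2 => a2
  | 3 => a3
  | 4 => a4
  | _ => a5

theorem eq_mkV (u : V) : u = mkV (u 0) (u 1) (u 2) (u 3) (u 4) (u 5) := by
  funext i
  fin_cases i <;> rfl

def gval : GF4 → ℕ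
  | .o => 0
  | .i => 1
  | .w => 2
  | .v => 3

theorem gval_lt : ∀ x, gval x < 4 := by decide

theorem gval_inj {x y : GF4} (h : gval x = gval y) : x = y := by
  revert x y
  decide

/-- The code of a vector. -/
def code (u : V) : ℕ :=
  gval (u 0) + 4 * (gval (u 1) + 4 * (gval (u 2) + 4 * (gval (u 3) + 4 * (gval (u 4) + 4 * gval (u 5)))))

theorem code_inj {u v : V} (h : code u = code v) : u = v := by
  unfold code at h
  have h0 := gval_lt (u 0)
  have h1 := gval_lt (u 1)
  have h2 := gval_lt (u 2)
  have h3 := gval_lt (u 3)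
  have h4 := gval_lt (u 4)
  have h5 := gval_lt (u 5)
  have k0 := gval_lt (v 0)
  have k1 := gval_lt (v 1)
  have k2 := gval_lt (v 2)
  have k3 := gval_lt (v 3)
  have k4 := gval_lt (v 4)
  have k5 := gval_lt (v 5)
  funext i
  apply gval_inj
  fin_cases i
  · show gval (u 0) = gval (v 0)
    omega
  · show gval (u 1) = gval (v 1)
    omega
  · show gval (u 2) = gval (v 2)
    omega
  · show gval (u 3) = gval (v 3)
    omega
  · show gval (u 4) = gval (v 4)
    omega
  · show gval (u 5) = gval (v 5)
    omega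

theorem code_eq_zero {u : V} (h : code u = 0) : u = 0 := by
  have : code u = code 0 := h.trans (by decide)
  exact code_inj this

def isO : GF4 → Bool
  | .o => true
  | _ => false

theorem isO_iff : ∀ x : GF4, isO x = true ↔ x = 0 := by decide

/-- All values of a `GF4` variable. -/
def all4 (f : GF4 → Bool) : Bool := f .o && f .i && f .w && f .v

theorem all4_spec {f : GF4 → Bool} (h : all4 f = true) (x : GF4) : f x = true := by
  simp only [all4, Bool.and_eq_true] at h
  obtain ⟨⟨⟨h0, h1⟩, h2⟩, h3⟩ := h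
  cases x
  · exact h0
  · exact h1
  · exact h2
  · exact h3

/-! ### The transvections -/

theorem add_self_F : ∀ x : GF4, x + x = 0 := by decide

theorem adm (u : V) (hu : herm u u = 0) : Adm 2 u 0 1 where
  uu := hu
  au := herm_zero_left hF u
  tr := by
    rw [herm_zero_left hF]
    decide

/-- The transvection of an isotropic vector. -/
noncomputable def TT (u : V) (hu : herm u u = 0) : SU6 := E hF hn u 0 1 (adm u hu)

theorem act_TT' (u : V) (hu : herm u u = 0) (x : V) : act (TT u hu) x = x + herm x u • u := by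
  rw [TT, act_E]
  unfold Efun
  rw [herm_zero_right hF, smul_zero, add_zero, one_mul, sub_zero]

theorem act_TT (u : V) (hu : herm u u = 0) (x : V) : act (TT u hu) x = tvr u x := by
  rw [act_TT']
  funext j
  show x j + herm x u * u j = _
  rw [herm_eq]
  rfl

theorem TT_mul_self (u : V) (hu : herm u u = 0) : TT u hu * TT u hu = 1 := by
  apply su_ext
  intro x
  rw [act_mul, act_one, act_TT', act_TT', herm_add_left, herm_smul_left, hu, mul_zero, add_zero, add_assoc]
  rw [← add_smul, add_self_F, zero_smul, add_zero]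

theorem TT_inv (u : V) (hu : herm u u = 0) : (TT u hu)⁻¹ = TT u hu :=
  inv_eq_of_mul_eq_one_left (TT_mul_self u hu)

theorem TT_zero (hu : herm (0 : V) 0 = 0) : TT 0 hu = 1 := by
  apply su_ext
  intro x
  rw [act_one, act_TT', smul_zero, add_zero]

theorem herm_act_iso (g : SU6) {u : V} (hu : herm u u = 0) : herm (act g u) (act g u) = 0 := by
  rw [herm_act, hu]

theorem TT_congr {u v : V} (hu : herm u u = 0) (hv : herm v v = 0) (h : u = v) : TT u hu = TT v hv := by
  subst h
  rfl

theorem TT_conj (g : SU6) (u : V) (hu : herm u u = 0) (h' : herm (act g u) (act g u) = 0) :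
    g * TT u hu * g⁻¹ = TT (act g u) h' := by
  unfold TT
  rw [E_conj hF hn g (adm u hu)]
  apply E_congr hF hn
  · exact act_zero g
  · rfl

/-- The norm of a nonzero scalar is one. -/
theorem norm_one : ∀ c : GF4, c ≠ 0 → c * c ^ 2 = 1 := by decide

theorem TT_scale {c : GF4} (hc : c ≠ 0) (u : V) (hu : herm u u = 0) (h' : herm (c • u) (c • u) = 0) :
    TT (c • u) h' = TT u hu := by
  apply su_ext
  intro x
  rw [act_TT', act_TT', herm_smul_right hF, smul_smul]
  congr 2
  have := norm_one c hc
  calc c ^ 2 * herm x u * c = (c * c ^ 2) * herm x u := by ring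
    _ = herm x u := by rw [this, one_mul]

end Cfsg.Agent.H16.U62
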