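import Cfsg.Agent.Lib.H16.U62.Words
import Cfsg.Agent.S1687
import Cfsg.Agent.S0280
import Cfsg.Prelude.Def_Sporadic
import Cfsg.Prelude.Def_SporadicB

/-!
The subgroup `H` of index `3510` of the presented group `Fi₂₂` maps onto `PSU₆(2)` with a kernel of order two.
The generators of `H` act on the `693` cosets of an orbit as transvections do on the isotropic points.
-/

set_option autoImplicit false
set_option maxRecDepth 100000
set_option linter.style.haveILetI false
set_option linter.unusedSimpArgs false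

namespace Cfsg.Agent.H16.U62

open Cfsg.Agent.H03 Cfsg.Agent.Lead Cfsg.Agent.Lead.PSU Cfsg.Agent.H16.CE.S1687 Cfsg.Agent.H16.CosetEnum
open Cfsg.Agent.H16.Enum (walk)

local notation "herm" => Cfsg.hermForm 6 GF4 2
local notation "RR" => Cfsg.Agent.S1687.R
local notation "SS" => Cfsg.Agent.S1687.S

theorem ok_vec (u : V) : okAt u = true := by
  rw [eq_mkV u]
  exact all4_spec (all4_spec (all4_spec (all4_spec (all4_spec (all4_spec ok_all _) _) _) _) _) _

theorem scv_eq (c : GF4) (u : V) : scv c u = c • u := rfl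

theorem beq_eq {a b : ℕ} (h : Nat.beq a b = true) : a = b := Nat.eq_of_beq_eq_true h

/-- What the tables say about an isotropic vector. -/
structure Ok (u : V) : Prop where
  lt : mu (code u) < 3510
  l : ∃ c : GF4, c ≠ 0 ∧ lam (mu (code u)) = code (c • u)
  r : (ent (code u) / 9 = 0 ∧ ∃ c : GF4, c ≠ 0 ∧ u = c • vecN (ent (code u) % 9)) ∨
    (ent (code (tvr (vecN (ent (code u) % 9)) u)) / 9 < ent (code u) / 9 ∧ ent (code u) / 9 ≠ 0)
  s : ∀ s < 9, mu (code (tvr (vecN s) u)) = walk tt (mu (code u)) (sL s)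

theorem ok_of (u : V) (hu : herm u u = 0) (hne : u ≠ 0) : Ok u := by
  have h := ok_vec u
  have hc : (isO (hfr u u) && !(Nat.beq (code u) 0)) = true := by
    rw [Bool.and_eq_true]
    refine ⟨(isO_iff _).2 ((herm_eq u u).symm.trans hu), ?_⟩
    rw [Bool.not_eq_true']
    rw [← Bool.not_eq_true]
    intro h0
    exact hne (code_eq_zero (beq_eq h0))
  rw [okAt, hc] at h
  simp only [cond_true, Bool.and_eq_true] at h
  obtain ⟨⟨⟨⟨⟨⟨⟨⟨⟨⟨⟨h1, hL⟩, hR⟩, s0⟩, s1⟩, s2⟩, s3⟩, s4⟩, s5⟩, s6⟩, s7⟩, s8⟩ := h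
  refine ⟨Nat.le_of_ble_eq_true h1, ?_, ?_, ?_⟩
  · simp only [okL, Bool.or_eq_true] at hL
    rcases hL with (h | h) | h
    · refine ⟨1, one_ne_zero, ?_⟩
      rw [one_smul]
      exact beq_eq h
    · exact ⟨.w, by decide, beq_eq h⟩
    · exact ⟨.v, by decide, beq_eq h⟩
  · unfold okR at hR
    by_cases h0 : ent (code u) / 9 = 0
    · left
      rw [if_pos h0] at hR
      refine ⟨h0, ?_⟩
      simp only [Bool.or_eq_true] at hR
      rcases hR with (h | h) | h
      · exact ⟨.i, by decide, code_inj (beq_eq h)⟩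
      · exact ⟨.w, by decide, code_inj (beq_eq h)⟩
      · exact ⟨.v, by decide, code_inj (beq_eq h)⟩
    · right
      rw [if_neg h0] at hR
      exact ⟨Nat.le_of_ble_eq_true hR, h0⟩
  · intro s hs
    interval_cases s
    · exact beq_eq s0
    · exact beq_eq s1
    · exact beq_eq s2
    · exact beq_eq s3
    · exact beq_eq s4
    · exact beq_eq s5
    · exact beq_eq s6
    · exact beq_eq s7
    · exact beq_eq s8

/-- The vectors of the generators. -/
def vec (s : Fin 9) : V := vecN s.val

theorem vec_hfr : ∀ s : Fin 9, hfr (vec s) (vec s) = .o := by decide +kernel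

theorem vec_iso (s : Fin 9) : herm (vec s) (vec s) = 0 := (herm_eq _ _).trans (vec_hfr s)

theorem vecN_iso (s : ℕ) (hs : s < 9) : herm (vecN s) (vecN s) = 0 := vec_iso ⟨s, hs⟩

/-- The map to `SU` of the words in the generators. -/
noncomputable def be : FreeGroup (Fin 9) →* SU6 := FreeGroup.lift fun s => TT (vec s) (vec_iso s)

theorem be_of (s : Fin 9) : be (FreeGroup.of s) = TT (vec s) (vec_iso s) := by
  simp [be]

theorem act_ne_zero (g : SU6) {u : V} (h : u ≠ 0) : act g u ≠ 0 := by
  intro h0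
  apply h
  apply act_injective g
  rw [h0, act_zero]

/-! ### Surjectivity -/

noncomputable abbrev RS : Subgroup SU6 := be.range

theorem TT_vec_mem (s : ℕ) (hs : s < 9) (h : herm (vecN s) (vecN s) = 0) : TT (vecN s) h ∈ RS :=
  ⟨FreeGroup.of ⟨s, hs⟩, be_of ⟨s, hs⟩⟩

theorem TT_mem_aux : ∀ (n : ℕ) (u : V) (hu : herm u u = 0), u ≠ 0 → ent (code u) / 9 = n → TT u hu ∈ RS := by
  intro n
  induction n using Nat.strong_induction_on with
  | _ n ih =>
    intro u hu hne hn
    have hok := ok_of u hu hne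
    have hlt : ent (code u) % 9 < 9 := Nat.mod_lt _ (by norm_num)
    have hvi := vecN_iso _ hlt
    rcases hok.r with ⟨-, c, hc, he⟩ | ⟨h1, -⟩
    · have h2 : herm (c • vecN (ent (code u) % 9)) (c • vecN (ent (code u) % 9)) = 0 := by
        rw [← he]
        exact hu
      rw [TT_congr hu h2 he, TT_scale hc _ hvi h2]
      exact TT_vec_mem _ hlt _
    · set s := ent (code u) % 9 with hs
      have e1 : act (TT (vecN s) hvi) u = tvr (vecN s) u := act_TT _ _ _
      have hu' := herm_act_iso (TT (vecN s) hvi) hu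
      have hne' := act_ne_zero (TT (vecN s) hvi) hne
      have h3 : TT (act (TT (vecN s) hvi) u) hu' ∈ RS := by
        refine ih (ent (code (act (TT (vecN s) hvi) u)) / 9) ?_ _ _ hne' rfl
        rw [e1, ← hn]
        exact h1
      have hu'' := herm_act_iso (TT (vecN s) hvi) hu'
      have h4 := TT_conj (TT (vecN s) hvi) _ hu' hu''
      have h5 : act (TT (vecN s) hvi) (act (TT (vecN s) hvi) u) = u := by
        rw [← act_mul, TT_mul_self, act_one]
      rw [TT_congr hu'' hu h5] at h4
      rw [← h4]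
      exact RS.mul_mem (RS.mul_mem (TT_vec_mem _ hlt _) h3) (RS.inv_mem (TT_vec_mem _ hlt _))

theorem TT_mem (u : V) (hu : herm u u = 0) : TT u hu ∈ RS := by
  by_cases h : u = 0
  · subst h
    rw [TT_zero]
    exact RS.one_mem
  · exact TT_mem_aux _ u hu h rfl

theorem RS_normal : RS.Normal := by
  constructor
  rintro _ ⟨w, rfl⟩ g
  induction w using FreeGroup.induction_on with
  | C1 => simp [RS.one_mem]
  | of s =>
    show g * be (FreeGroup.of s) * g⁻¹ ∈ RS
    rw [be_of, TT_conj g _ _ (herm_act_iso g (vec_iso s))]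
    exact TT_mem _ _
  | inv_of s ih =>
    rw [map_inv]
    have : g * (be (FreeGroup.of s))⁻¹ * g⁻¹ = (g * be (FreeGroup.of s) * g⁻¹)⁻¹ := by group
    rw [this]
    exact RS.inv_mem ih
  | mul x y hx hy =>
    rw [map_mul]
    have : g * (be x * be y) * g⁻¹ = (g * be x * g⁻¹) * (g * be y * g⁻¹) := by group
    rw [this]
    exact RS.mul_mem hx hy

instance simple6 : IsSimpleGroup PSU6 := psu_simple hF (by norm_num) (by norm_num) (by norm_num)

noncomputable abbrev mk6 : SU6 →* PSU6 := QuotientGroup.mk' _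

theorem noncomm : tvr (vecN 1) (tvr (vecN 2) (vecN 1)) ≠ tvr (vecN 2) (tvr (vecN 1) (vecN 1)) := by
  intro h
  have := congrArg code h
  revert this
  decide +kernel

theorem mk_be_surj : Function.Surjective (mk6.comp be) := by
  have hs : Function.Surjective mk6 := QuotientGroup.mk'_surjective _
  haveI := RS_normal
  have hN : (RS.map mk6).Normal := Subgroup.Normal.map RS_normal _ hs
  rcases IsSimpleGroup.eq_bot_or_eq_top_of_normal _ hN with h | h
  · exfalso
    have h1 : ∀ s : ℕ, (hs : s < 9) → ∀ h', TT (vecN s) h' ∈ Subgroup.center SU6 := by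
      intro s hs h'
      have h2 : mk6 (TT (vecN s) h') ∈ RS.map mk6 := ⟨_, TT_vec_mem s hs h', rfl⟩
      rw [h, Subgroup.mem_bot] at h2
      exact (QuotientGroup.eq_one_iff _).1 h2
    have h3 := (Subgroup.mem_center_iff.1 (h1 1 (by norm_num) (vecN_iso 1 (by norm_num)))) (TT (vecN 2) (vecN_iso 2 (by norm_num)))
    have h4 := congrArg (fun g : SU6 => act g (vecN 1)) h3
    simp only [act_mul, act_TT] at h4
    exact noncomm h4.symm
  · intro x
    have hx : x ∈ RS.map mk6 := by rw [h]; trivial
    obtain ⟨_, ⟨w, rfl⟩, hw⟩ := hx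
    exact ⟨w, hw⟩

theorem card_PSU6 : Nat.card PSU6 = 9196830720 := by
  have h := Cfsg.Agent.S0280.result hF 6 (by norm_num)
  simp only [Finset.prod_range_succ, Finset.prod_range_zero] at h
  norm_num [Nat.even_iff] at h
  change Nat.card (Cfsg.PSU 6 GF4 2) = _
  omega

theorem center_PSU6 : Subgroup.center PSU6 = ⊥ := by
  rcases (Subgroup.center PSU6).normal_of_characteristic.eq_bot_or_eq_top with h | h
  · exact h
  · exfalso
    haveI : IsMulCommutative PSU6 := ⟨⟨fun a b => by
      have h1 : a ∈ Subgroup.center PSU6 := by rw [h]; trivial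
      exact ((Subgroup.mem_center_iff.1 h1) b).symm⟩⟩
    have := (Group.is_simple_iff_prime_card (α := PSU6)).1 simple6
    rw [card_PSU6] at this
    norm_num at this

/-- An element commuting with all transvections is trivial in `PSU`. -/
theorem mk_eq_one_of_comm (g : SU6) (h : ∀ u hu, g * TT u hu = TT u hu * g) : mk6 g = 1 := by
  have h1 : ∀ w, g * be w = be w * g := by
    intro w
    induction w using FreeGroup.induction_on with
    | C1 => simp
    | of s =>
      show g * be (FreeGroup.of s) = be (FreeGroup.of s) * g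
      rw [be_of]
      exact h _ _
    | inv_of s ih =>
      rw [map_inv]
      exact (Commute.inv_right ih)
    | mul x y hx hy =>
      rw [map_mul, ← mul_assoc, hx, mul_assoc, hy, mul_assoc]
  have h2 : mk6 g ∈ Subgroup.center PSU6 := by
    rw [Subgroup.mem_center_iff]
    intro x
    obtain ⟨w, rfl⟩ := mk_be_surj x
    simp only [MonoidHom.comp_apply]
    rw [← map_mul, ← map_mul, h1]
  rw [center_PSU6, Subgroup.mem_bot] at h2
  exact h2

/-- Two vectors at the same point have the same transvection. -/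
theorem TT_same (u u' : V) (hu : herm u u = 0) (hu' : herm u' u' = 0) (hne : u ≠ 0) (hne' : u' ≠ 0)
    (h : mu (code u) = mu (code u')) : TT u hu = TT u' hu' := by
  obtain ⟨c, hc, e⟩ := (ok_of u hu hne).l
  obtain ⟨c', hc', e'⟩ := (ok_of u' hu' hne').l
  rw [h, e'] at e
  have e2 := code_inj e
  have e3 : u = (c⁻¹ * c') • u' := by
    rw [mul_smul, e2, smul_smul, inv_mul_cancel₀ hc, one_smul]
  have hcc : c⁻¹ * c' ≠ 0 := mul_ne_zero (inv_ne_zero hc) hc'
  have h' : herm ((c⁻¹ * c') • u') ((c⁻¹ * c') • u') = 0 := by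
    rw [← e3]
    exact hu
  rw [TT_congr hu h' e3]
  exact TT_scale hcc _ hu' h'

/-! ### The subgroup -/

abbrev HH : Subgroup (PresentedGroup RR) := (Subgroup.closure SS).map (PresentedGroup.mk RR)

/-- The generators of `H` as words. -/
def rep (s : Fin 9) : FreeGroup Cfsg.Spor.Fi22.Gen := Cfsg.Agent.S1687.SL.getD s.val 1

theorem rep_mem (s : Fin 9) : rep s ∈ SS := by
  fin_cases s <;> simp [rep, Cfsg.Agent.S1687.SL, Cfsg.Agent.S1687.S]

theorem letters_rep (s : Fin 9) : letters Cfsg.Agent.S1687.code (rep s) = sL s.val := by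
  unfold sL
  rw [Cfsg.Agent.S1687.hhw]
  fin_cases s <;> rfl

/-- The generators of `H`. -/
noncomputable def sgen (s : Fin 9) : HH :=
  ⟨PresentedGroup.mk RR (rep s), Subgroup.mem_map_of_mem _ (Subgroup.subset_closure (rep_mem s))⟩

/-- The words in the generators. -/
noncomputable def al : FreeGroup (Fin 9) →* HH := FreeGroup.lift sgen

theorem al_of (s : Fin 9) : al (FreeGroup.of s) = sgen s := by
  simp [al]

theorem al_surj : Function.Surjective al := by
  rintro ⟨_, y, hy, rfl⟩
  have key : ∀ y ∈ Subgroup.closure SS, ∃ r, ((al r : HH) : PresentedGroup RR) = PresentedGroup.mk RR y := by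
    intro y hy
    induction hy using Subgroup.closure_induction with
    | mem s hs =>
      have : ∃ x, s = rep x := by
        simp only [Cfsg.Agent.S1687.S, Set.mem_insert_iff, Set.mem_singleton_iff] at hs
        rcases hs with rfl | rfl | rfl | rfl | rfl | rfl | rfl | rfl | rfl
        · exact ⟨0, rfl⟩
        · exact ⟨1, rfl⟩
        · exact ⟨2, rfl⟩
        · exact ⟨3, rfl⟩
        · exact ⟨4, rfl⟩
        · exact ⟨5, rfl⟩
        · exact ⟨6, rfl⟩
        · exact ⟨7, rfl⟩
        · exact ⟨8, rfl⟩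
      obtain ⟨x, rfl⟩ := this
      exact ⟨FreeGroup.of x, by rw [al_of]; rfl⟩
    | one => exact ⟨1, by rw [map_one, map_one]; rfl⟩
    | mul a b _ _ ha hb =>
      obtain ⟨r, hr⟩ := ha
      obtain ⟨r', hr'⟩ := hb
      exact ⟨r * r', by rw [map_mul, map_mul, Subgroup.coe_mul, hr, hr']⟩
    | inv a _ ha =>
      obtain ⟨r, hr⟩ := ha
      exact ⟨r⁻¹, by rw [map_inv, map_inv, Subgroup.coe_inv, hr]⟩
  obtain ⟨r, hr⟩ := key y hy
  exact ⟨r, Subtype.ext hr⟩

section Act

variable (ac : PresentedGroup RR →* (Equiv.Perm (Fin 3510))ᵐᵒᵖ)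
  (hac : ∀ (r : FreeGroup Cfsg.Spor.Fi22.Gen) (i : Fin 3510),
    (ract ac (PresentedGroup.mk RR r) i : ℕ) = walk tt i (letters Cfsg.Agent.S1687.code r))

include hac

theorem ract_sgen (s : Fin 9) (i : Fin 3510) : (ract ac (sgen s : HH) i : ℕ) = walk tt i (sL s.val) := by
  have := hac (rep s) i
  rw [letters_rep] at this
  exact this

theorem key (w : FreeGroup (Fin 9)) : ∀ (u : V) (_ : herm u u = 0) (_ : u ≠ 0) (i : Fin 3510), (i : ℕ) = mu (code u) →
    (ract ac ((al w : HH) : PresentedGroup RR) i : ℕ) = mu (code (act (be w)⁻¹ u)) := by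
  induction w using FreeGroup.induction_on with
  | C1 =>
    intro u _ _ i hi
    rw [map_one, map_one, inv_one, act_one, Subgroup.coe_one, ract_one, hi]
  | of s =>
    intro u hu hne i hi
    show (ract ac ((al (FreeGroup.of s) : HH) : PresentedGroup RR) i : ℕ) = mu (code (act (be (FreeGroup.of s))⁻¹ u))
    rw [al_of, be_of, TT_inv, act_TT, ract_sgen ac hac, hi]
    exact ((ok_of u hu hne).s s.val s.2).symm
  | inv_of s ih =>
    intro u hu hne i hi
    rw [map_inv, map_inv, inv_inv, Subgroup.coe_inv]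
    have hu' := herm_act_iso (be (FreeGroup.of s)) hu
    have hne' := act_ne_zero (be (FreeGroup.of s)) hne
    have hlt := (ok_of _ hu' hne').lt
    have h1 := ih _ hu' hne' ⟨_, hlt⟩ rfl
    rw [act_inv_act, ← hi] at h1
    have h2 : ract ac ((al (FreeGroup.of s) : HH) : PresentedGroup RR) ⟨_, hlt⟩ = i := Fin.ext h1
    rw [← h2, ract_inv]
  | mul x y hx hy =>
    intro u hu hne i hi
    rw [map_mul, map_mul, Subgroup.coe_mul, ract_mul, mul_inv_rev, act_mul]
    exact hy _ (herm_act_iso _ hu) (act_ne_zero _ hne) _ (hx u hu hne i hi)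

theorem ker_le : al.ker ≤ (mk6.comp be).ker := by
  intro w hw
  rw [MonoidHom.mem_ker] at hw ⊢
  apply mk_eq_one_of_comm
  intro u hu
  by_cases hne : u = 0
  · subst hne
    rw [TT_zero, mul_one, one_mul]
  have h1 := key ac hac w u hu hne ⟨_, (ok_of u hu hne).lt⟩ rfl
  rw [hw, Subgroup.coe_one, ract_one] at h1
  have hu' := herm_act_iso (be w)⁻¹ hu
  have h2 := TT_same u _ hu hu' hne (act_ne_zero _ hne) h1
  have h3 := TT_conj (be w)⁻¹ u hu hu'
  rw [← h2, inv_inv] at h3
  calc be w * TT u hu = be w * ((be w)⁻¹ * TT u hu * be w) := by rw [h3]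
    _ = TT u hu * be w := by group

/-- The map to `PSU`. -/
noncomputable def psi : HH →* PSU6 :=
  (MonoidHom.liftOfSurjective al al_surj) ⟨mk6.comp be, ker_le ac hac⟩

theorem psi_al (w : FreeGroup (Fin 9)) : psi ac hac (al w) = mk6 (be w) :=
  MonoidHom.liftOfRightInverse_comp_apply _ _ _ _ _

theorem psi_surj : Function.Surjective (psi ac hac) := by
  intro x
  obtain ⟨w, rfl⟩ := mk_be_surj x
  exact ⟨al w, psi_al ac hac w⟩

theorem psi_a : sgen 0 ∈ (psi ac hac).ker := by
  rw [MonoidHom.mem_ker, ← al_of, psi_al, be_of]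
  have h : herm (0 : V) 0 = 0 := herm_zero_left hF _
  have e : vec 0 = 0 := by
    funext i
    fin_cases i <;> rfl
  rw [TT_congr (vec_iso 0) h e, TT_zero, map_one]

/-! ### Words in the generators -/

omit hac in
theorem walk_app (t : ℕ → ℕ → ℕ) (i : ℕ) (w w' : List ℕ) : walk t i (w ++ w') = walk t (walk t i w) w' := by
  induction w generalizing i with
  | nil => rfl
  | cons a r ih => exact ih _

/-- The product of a list of generators. -/
noncomputable def sw (l : List (Fin 9)) : HH := (l.map sgen).prod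

omit hac in
theorem sw_append (l l' : List (Fin 9)) : sw (l ++ l') = sw l * sw l' := by
  simp [sw]

omit hac in
theorem sw_one (s : Fin 9) : sw [s] = sgen s := by
  simp [sw]

theorem ract_sw (l : List (Fin 9)) (i : Fin 3510) : (ract ac (sw l : HH) i : ℕ) = walk tt i (WF l) := by
  induction l generalizing i with
  | nil =>
    have : ((sw [] : HH) : PresentedGroup RR) = 1 := by simp [sw]
    rw [this, ract_one]
    rfl
  | cons s l ih =>
    have e1 : sw (s :: l) = sgen s * sw l := by simp [sw]
    have e2 : WF (s :: l) = sL s.val ++ WF l := by simp [WF]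
    rw [e1, e2, Subgroup.coe_mul, ract_mul, ih, ract_sgen ac hac, walk_app]

theorem ac_inj (hS : IsSimpleGroup (PresentedGroup RR)) (x y : PresentedGroup RR)
    (h : ∀ i, ract ac x i = ract ac y i) : x = y := by
  have hker : ac.ker = ⊥ := by
    rcases (ac.normal_ker).eq_bot_or_eq_top with h | h
    · exact h
    · exfalso
      have h7 : PresentedGroup.mk RR (FreeGroup.of .b) ∈ ac.ker := by rw [h]; trivial
      rw [MonoidHom.mem_ker] at h7
      have h8 := hac (FreeGroup.of .b) ⟨0, by norm_num⟩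
      have h9 : ract ac (PresentedGroup.mk RR (FreeGroup.of .b)) ⟨0, by norm_num⟩ = ⟨0, by norm_num⟩ := by
        unfold ract
        rw [h7]
        rfl
      rw [h9] at h8
      exact t1_0 h8.symm
  have hi := (MonoidHom.ker_eq_bot_iff ac).1 hker
  apply hi
  apply MulOpposite.unop_injective
  ext i
  exact congrArg Fin.val (h i)

theorem sw_eq (hS : IsSimpleGroup (PresentedGroup RR)) (l l' : List (Fin 9))
    (h : rangeAll (chkW l l') 0 3510 = true) : sw l = sw l' := by
  apply Subtype.ext
  apply ac_inj ac hac hS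
  intro i
  apply Fin.ext
  rw [ract_sw ac hac, ract_sw ac hac]
  exact beq_eq (range_step range_start h rfl i i.2)

theorem sgen0_ne : sgen 0 ≠ 1 := by
  intro h
  have h1 := ract_sgen ac hac 0 ⟨1, by norm_num⟩
  rw [h, Subgroup.coe_one, ract_one] at h1
  exact t0_m h1.symm

theorem card_ker (hK : Cfsg.IsFi22 Cfsg.Spor.Fi22) : Nat.card (psi ac hac).ker = 2 := by
  have h1 : Nat.card HH * HH.index = Nat.card (PresentedGroup RR) := Subgroup.card_mul_index HH
  have h2 : HH.index = 3510 := Cfsg.Agent.S1687.result.1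
  have h3 : Nat.card (PresentedGroup RR) = 64561751654400 := hK.2
  rw [h2, h3] at h1
  have h4 : Nat.card HH = Nat.card (HH ⧸ (psi ac hac).ker) * Nat.card (psi ac hac).ker :=
    Subgroup.card_eq_card_quotient_mul_card_subgroup _
  have h5 : Nat.card (HH ⧸ (psi ac hac).ker) = Nat.card PSU6 :=
    Nat.card_congr (QuotientGroup.quotientKerEquivOfSurjective _ (psi_surj ac hac)).toEquiv
  rw [h5, card_PSU6] at h4
  omega

theorem center_eq (hK : Cfsg.IsFi22 Cfsg.Spor.Fi22) : Subgroup.center HH = (psi ac hac).ker := by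
  apply le_antisymm
  · intro x hx
    rw [MonoidHom.mem_ker]
    have h1 : psi ac hac x ∈ Subgroup.center PSU6 := by
      rw [Subgroup.mem_center_iff]
      intro y
      obtain ⟨y, rfl⟩ := psi_surj ac hac y
      rw [← map_mul, ← map_mul, (Subgroup.mem_center_iff.1 hx) y]
    rwa [center_PSU6, Subgroup.mem_bot] at h1
  · intro x hx
    rw [Subgroup.mem_center_iff]
    intro g
    by_cases hx1 : x = 1
    · subst hx1
      simp
    have hc := (Nat.card_eq_two_iff' (1 : (psi ac hac).ker)).1 (card_ker ac hac hK)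
    have hN : (psi ac hac).ker.Normal := MonoidHom.normal_ker _
    have hy : g * x * g⁻¹ ∈ (psi ac hac).ker := hN.conj_mem x hx g
    have e : (⟨g * x * g⁻¹, hy⟩ : (psi ac hac).ker) = ⟨x, hx⟩ := by
      apply hc.unique
      · intro h
        have h1 := congrArg Subtype.val h
        simp only [Subgroup.coe_one] at h1
        apply hx1
        have h2 : g * x * g⁻¹ * g = g := by rw [h1, one_mul]
        have h3 : g * x = g := by simpa [mul_assoc] using h2
        simpa using h3
      · intro h
        exact hx1 (congrArg Subtype.val h)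
    have h1 := congrArg Subtype.val e
    simp only at h1
    calc g * x = (g * x * g⁻¹) * g := by group
      _ = x * g := by rw [h1]

theorem main_cover (hK : Cfsg.IsFi22 Cfsg.Spor.Fi22) : Cfsg.IsNonsplitDoubleCover HH PSU6 := by
  have hce := center_eq ac hac hK
  have hcard : Nat.card (Subgroup.center HH) = 2 := by
    rw [hce]
    exact card_ker ac hac hK
  refine ⟨hcard, ?_, ?_⟩
  · exact ⟨(QuotientGroup.quotientMulEquivOfEq hce).trans
      (QuotientGroup.quotientKerEquivOfSurjective _ (psi_surj ac hac))⟩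
  · intro L hc
    have hL : L.index = 2 := by rw [hc.index_eq_card, hcard]
    have hsq : ∀ x : HH, x * x ∈ L := Subgroup.mul_self_mem_of_index_two hL
    have hcube : ∀ x : HH, x ^ 3 = 1 → x ∈ L := by
      intro x hx
      have e : x * x * (x * x) = x := by
        calc x * x * (x * x) = x ^ 3 * x := by simp only [pow_succ, pow_zero, one_mul, mul_assoc]
          _ = x := by rw [hx, one_mul]
      rw [← e]
      exact hsq _
    have hS : IsSimpleGroup (PresentedGroup RR) := hK.1
    have hE := sw_eq ac hac hS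
    have e1 : (sw [4, 3]) ^ 3 = 1 := by
      have h := hE [4, 3, 4, 3, 4, 3] [] c1
      have e : ([4, 3, 4, 3, 4, 3] : List (Fin 9)) = [4, 3] ++ [4, 3] ++ [4, 3] := rfl
      rw [e, sw_append, sw_append] at h
      rw [pow_succ, pow_two, h]
      simp [sw]
    have e2 : (sw [8, 7]) ^ 3 = 1 := by
      have h := hE [8, 7, 8, 7, 8, 7] [] c2
      have e : ([8, 7, 8, 7, 8, 7] : List (Fin 9)) = [8, 7] ++ [8, 7] ++ [8, 7] := rfl
      rw [e, sw_append, sw_append] at h
      rw [pow_succ, pow_two, h]
      simp [sw]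
    have e3 : (sw [2, 1]) ^ 3 = 1 := by
      have h := hE [2, 1, 2, 1, 2, 1] [] c3
      have e : ([2, 1, 2, 1, 2, 1] : List (Fin 9)) = [2, 1] ++ [2, 1] ++ [2, 1] := rfl
      rw [e, sw_append, sw_append] at h
      rw [pow_succ, pow_two, h]
      simp [sw]
    have e4 : (sw [7, 6]) ^ 3 = 1 := by
      have h := hE [7, 6, 7, 6, 7, 6] [] c4
      have e : ([7, 6, 7, 6, 7, 6] : List (Fin 9)) = [7, 6] ++ [7, 6] ++ [7, 6] := rfl
      rw [e, sw_append, sw_append] at h
      rw [pow_succ, pow_two, h]
      simp [sw]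
    have h5 : sw w5 ∈ L := by
      have e : w5 = [4, 3] ++ ([8, 7] ++ ([2, 1] ++ [7, 6])) := rfl
      rw [e, sw_append, sw_append, sw_append]
      exact L.mul_mem (hcube _ e1) (L.mul_mem (hcube _ e2) (L.mul_mem (hcube _ e3) (hcube _ e4)))
    have ha : sgen 0 ∈ L := by
      have h := hE w55 [0] c5
      rw [sw_one] at h
      have e : sw w55 = sw w5 * (sw w5 * (sw w5 * (sw w5 * sw w5))) := by
        show sw (w5 ++ (w5 ++ (w5 ++ (w5 ++ w5)))) = _
        rw [sw_append w5, sw_append w5, sw_append w5, sw_append w5]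
      rw [← h, e]
      exact L.mul_mem h5 (L.mul_mem h5 (L.mul_mem h5 (L.mul_mem h5 h5)))
    have hac' : sgen 0 ∈ Subgroup.center HH := by
      rw [hce]
      exact psi_a ac hac
    exact sgen0_ne ac hac ((Subgroup.disjoint_def.1 hc.disjoint) hac' ha)

end Act

/-- The main theorem. -/
theorem result_main (hK : Cfsg.IsFi22 Cfsg.Spor.Fi22) : Cfsg.IsNonsplitDoubleCover HH PSU6 := by
  obtain ⟨ac, -, hac⟩ := Cfsg.Agent.S1687.main
  exact main_cover ac hac hK

end Cfsg.Agent.H16.U62
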