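import Cfsg.Agent.Lib.H16.U62.Check
import Cfsg.Agent.Lib.H16.CosetEnum

/-!
Identities between words in the generators, checked on the cosets.
-/

set_option autoImplicit false
set_option maxRecDepth 1000000

namespace Cfsg.Agent.H16.U62

open Cfsg.Agent.H03 Cfsg.Agent.H16.CE.S1687 Cfsg.Agent.H16.CosetEnum
open Cfsg.Agent.H16.Enum (walk)

/-- The word of a list of generators. -/
def WF (l : List (Fin 9)) : List ℕ := (l.map fun s => sL s.val).flatten

def chkW (l l' : List (Fin 9)) (i : ℕ) : Bool := Nat.beq (walk tt i (WF l)) (walk tt i (WF l'))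

/-- The word with fifth power `a`. -/
def w5 : List (Fin 9) := [4, 3, 8, 7, 2, 1, 7, 6]

def w55 : List (Fin 9) := w5 ++ w5 ++ w5 ++ w5 ++ w5

theorem c1 : rangeAll (chkW [4, 3, 4, 3, 4, 3] []) 0 3510 = true := by decide +kernel
theorem c2 : rangeAll (chkW [8, 7, 8, 7, 8, 7] []) 0 3510 = true := by decide +kernel
theorem c3 : rangeAll (chkW [2, 1, 2, 1, 2, 1] []) 0 3510 = true := by decide +kernel
theorem c4 : rangeAll (chkW [7, 6, 7, 6, 7, 6] []) 0 3510 = true := by decide +kernel
theorem c5 : rangeAll (chkW w55 [0]) 0 3510 = true := by decide +kernel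

theorem t1_0 : tt 1 0 ≠ 0 := by decide +kernel
theorem t0_m : tt 0 1 ≠ 1 := by decide +kernel

end Cfsg.Agent.H16.U62
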